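import Cfsg.Agent.H927.G2Main
import Cfsg.Agent.ChevalleyStructure.GraphG2

/-!
# The invariant alternating 3-form of `G₂(K)` in dimension 7 (helper927)

* `f8` : `t((x y) z)` on Zorn's algebra; `f8_xx`, `f8_yy` : alternating on the elements of trace 0;
* `Ak j g` : the matrix of `g` twisted by the field embedding `j`;
* `exists_tri1` : the 3-form on a module whose coefficient is `j (x1 g)`;
* `exists_tri` : the 3-form on a simple module of dimension at most 12, `p ≠ 2`;
* **`g2_tri`** : the 3-form of a core of type `G₂(K)`.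
-/

set_option autoImplicit false
set_option linter.unusedSectionVars false
set_option linter.style.haveILetI false

namespace Cfsg.Agent.H927.G2

open Cfsg.Lie Matrix Cfsg.Agent.H638.G2Rep Cfsg.Agent.H638.G2Mem
open Cfsg.Agent.H638
open CoxeterSystem Cfsg.Agent.ChevalleyStructure.CoxeterGeom Cfsg.Agent.Tits.Roots Cfsg.Agent.Tits.Core
  Cfsg.Agent.Tits.Exchange Cfsg.Agent.Nodes.Reps Cfsg.Agent.Nodes.BNOf Cfsg.Agent.Nodes.StabComb
  Cfsg.Agent.Nodes.Bruhat Cfsg.Agent.Nodes.OppDec Cfsg.Agent.Nodes.LeviDec Cfsg.Agent.KFacts.RgdOpp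
  Cfsg.Agent.Omega.CR Cfsg.Agent.Omega.FOne.Lift.Sd Cfsg.Agent.Nodes.RGDLib
open Cfsg.Agent.H905.Md Cfsg.Agent.H64.CrossChev Cfsg.Agent.Nodes.RGDChev
open Module Cfsg.Agent.H927.LD

/-! ### Zorn's algebra -/

section zorn

variable {k : Type*} [Field k]

theorem zorn_add_left (x y z : Fin 8 → k) : zornMul (x + y) z = zornMul x z + zornMul y z := by
  rw [zorn_apply, zorn_apply, zorn_apply]
  simp only [Pi.add_apply]
  ext i
  fin_cases i <;> simp <;> ring

theorem zorn_add_right (x y z : Fin 8 → k) : zornMul x (y + z) = zornMul x y + zornMul x z := by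
  rw [zorn_apply, zorn_apply, zorn_apply]
  simp only [Pi.add_apply]
  ext i
  fin_cases i <;> simp <;> ring

theorem zorn_smul_left (c : k) (x y : Fin 8 → k) : zornMul (c • x) y = c • zornMul x y := by
  rw [zorn_apply, zorn_apply]
  simp only [Pi.smul_apply, smul_eq_mul]
  ext i
  fin_cases i <;> simp <;> ring

theorem zorn_smul_right (c : k) (x y : Fin 8 → k) : zornMul x (c • y) = c • zornMul x y := by
  rw [zorn_apply, zorn_apply]
  simp only [Pi.smul_apply, smul_eq_mul]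
  ext i
  fin_cases i <;> simp <;> ring

/-- the product, bilinear -/
noncomputable def zl (k : Type*) [Field k] : (Fin 8 → k) →ₗ[k] (Fin 8 → k) →ₗ[k] (Fin 8 → k) :=
  LinearMap.mk₂ k zornMul zorn_add_left zorn_smul_left zorn_add_right zorn_smul_right

/-- the trace -/
noncomputable def tr8 (k : Type*) [Field k] : (Fin 8 → k) →ₗ[k] k :=
  LinearMap.proj (R := k) (φ := fun _ : Fin 8 => k) 0 + LinearMap.proj (R := k) (φ := fun _ : Fin 8 => k) 7

/-- the 3-form -/
noncomputable def f8 (k : Type*) [Field k] : (Fin 8 → k) →ₗ[k] (Fin 8 → k) →ₗ[k] (Fin 8 → k) →ₗ[k] k :=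
  (zl k).compr₂ ((zl k).compr₂ (tr8 k))

theorem f8_apply (x y z : Fin 8 → k) : f8 k x y z = zornMul (zornMul x y) z 0 + zornMul (zornMul x y) z 7 := rfl

theorem f8_xx {x z : Fin 8 → k} (hx : x 0 + x 7 = 0) (hz : z 0 + z 7 = 0) : f8 k x x z = 0 := by
  have hx' : x 7 = - x 0 := by linear_combination hx
  have hz' : z 7 = - z 0 := by linear_combination hz
  rw [f8_apply, zorn_apply, zorn_apply]
  simp [hx', hz']
  ring

theorem f8_yy {x y : Fin 8 → k} (hx : x 0 + x 7 = 0) (hy : y 0 + y 7 = 0) : f8 k x y y = 0 := by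
  have hx' : x 7 = - x 0 := by linear_combination hx
  have hy' : y 7 = - y 0 := by linear_combination hy
  rw [f8_apply, zorn_apply, zorn_apply]
  simp [hx', hy']
  ring

end zorn

/-! ### the twisted representation -/

section tw

variable {K : Type} [Field K] [Finite K] {k : Type*} [Field k] (j : K →+* k)

theorem ev_map (t : K) (A : SP) : (ev t A).map j = ev (j t) A := by
  induction A with
  | nil =>
    rw [ev_nil, ev_nil]
    ext a b
    simp
  | cons p A ih =>
    rw [ev_cons, ev_cons, Matrix.map_add _ (map_add j), ih]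
    congr 1
    unfold term
    ext a b
    rw [Matrix.map_apply, Matrix.single_apply, Matrix.single_apply]
    split_ifs
    · simp
    · simp

/-- the matrix of `g`, twisted by `j` -/
noncomputable def Ak (g : GK K) : (Fin 8 → k) →ₗ[k] (Fin 8 → k) :=
  Matrix.toLin' ((th K g : Matrix (Fin 8) (Fin 8) K).map j)

theorem Ak_apply (g : GK K) (x : Fin 8 → k) :
    Ak j g x = (th K g : Matrix (Fin 8) (Fin 8) K).map j *ᵥ x := Matrix.toLin'_apply _ _

theorem Ak_mul (g h : GK K) (x : Fin 8 → k) : Ak j (g * h) x = Ak j g (Ak j h x) := by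
  rw [Ak_apply, Ak_apply, Ak_apply, map_mul, Units.val_mul, Matrix.map_mul, Matrix.mulVec_mulVec]

theorem Ak_one (x : Fin 8 → k) : Ak j (1 : GK K) x = x := by
  rw [Ak_apply, map_one, Units.val_one, Matrix.map_one _ (map_zero j) (map_one j), Matrix.one_mulVec]

theorem Ak_zorn (g : GK K) : ∀ x y : Fin 8 → k, Ak j g (zornMul x y) = zornMul (Ak j g x) (Ak j g y) := by
  refine g_induction (P := fun g => ∀ x y : Fin 8 → k, Ak j g (zornMul x y) = zornMul (Ak j g x) (Ak j g y))
    ?_ ?_ ?_ g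
  · intro x y
    rw [Ak_one, Ak_one, Ak_one]
  · intro a b ha hb x y
    rw [Ak_mul, Ak_mul, Ak_mul, hb, ha]
  · intro r hr t x y
    rw [Ak_apply, Ak_apply, Ak_apply, th_xg r hr]
    change (ev t (Y ⟨r, hr⟩)).map j *ᵥ _ = zornMul ((ev t (Y ⟨r, hr⟩)).map j *ᵥ x) ((ev t (Y ⟨r, hr⟩)).map j *ᵥ y)
    rw [ev_map]
    exact zorn_Y _ _ _ _

theorem th_val (g : GK K) (a b : Fin 8) : (th K g : Matrix (Fin 8) (Fin 8) K) a b = a8 K g (E8 K b) a := by
  rw [a8_apply]
  unfold E8
  rw [Matrix.mulVec_single_one]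
  rfl

theorem Ak_val (g : GK K) (x : Fin 8 → k) (a : Fin 8) : Ak j g x a = ∑ b, j (a8 K g (E8 K b) a) * x b := by
  rw [Ak_apply]
  change ∑ b, (th K g : Matrix (Fin 8) (Fin 8) K).map j a b * x b = _
  refine Finset.sum_congr rfl fun b _ => ?_
  rw [Matrix.map_apply, th_val]

theorem Ak_tr (g : GK K) (x : Fin 8 → k) : Ak j g x 0 + Ak j g x 7 = x 0 + x 7 := by
  rw [Ak_val, Ak_val, ← Finset.sum_add_distrib]
  have h1 : ∀ b : Fin 8, j (a8 K g (E8 K b) 0) * x b + j (a8 K g (E8 K b) 7) * x b =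
      (if b = 0 then x b else 0) + (if b = 7 then x b else 0) := by
    intro b
    rw [← add_mul, ← map_add, a8_tr]
    unfold E8
    rw [Pi.single_apply, Pi.single_apply]
    have h2 : (0 : Fin 8) = b ↔ b = 0 := eq_comm
    have h3 : (7 : Fin 8) = b ↔ b = 7 := eq_comm
    simp only [h2, h3, map_add]
    by_cases h : b = 0
    · subst h; simp
    · by_cases h' : b = 7
      · subst h'; simp
      · simp [h, h']
  rw [Finset.sum_congr rfl fun b _ => h1 b, Finset.sum_add_distrib]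
  simp

/-- the highest weight vector -/
def ek (k : Type*) [Field k] : Fin 8 → k := Pi.single 6 1

theorem Ak_ek (g : GK K) (a : Fin 8) : Ak j g (ek k) a = j (a8 K g (e8 K) a) := by
  rw [Ak_val]
  unfold ek e8
  rw [Finset.sum_eq_single 6]
  · rw [Pi.single_eq_same, mul_one]; rfl
  · intro b _ hb
    rw [Pi.single_eq_of_ne hb, mul_zero]
  · intro h
    exact absurd (Finset.mem_univ _) h

theorem x1_eq (g : GK K) : x1 g = a8 K g (e8 K) 6 := rfl

/-- the functionals -/
theorem rad (h2 : (2 : k) ≠ 0) {x : Fin 8 → k} (hx : x 0 + x 7 = 0) (h : ∀ g : GK K, Ak j g x 6 = 0) : x = 0 := by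
  have h1 : ∀ a : Fin 6, x (ix a) = 0 := by
    intro a
    rw [← h (rv8 K a), Ak_val, Finset.sum_eq_single (ix a)]
    · have h3 : a8 K (rv8 K a) (E8 K (ix a)) 6 = L8 K (ix a) (E8 K (ix a)) := by
        rw [← rv8_l a]; rfl
      rw [h3, L8_E8, if_pos rfl, map_one, one_mul]
    · intro b _ hb
      have h3 : a8 K (rv8 K a) (E8 K b) 6 = L8 K (ix a) (E8 K b) := by
        rw [← rv8_l a]; rfl
      rw [h3, L8_E8, if_neg (fun h => hb h.symm), map_zero, zero_mul]
    · intro h
      exact absurd (Finset.mem_univ _) h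
  have h9 := h (xg 9 1)
  rw [Ak_val] at h9
  simp only [Fin.sum_univ_eight, a8_9, E8] at h9
  have e1 := h1 0
  have e2 := h1 1
  have e3 := h1 2
  have e4 := h1 3
  have e5 := h1 4
  have e6 := h1 5
  change x 1 = 0 at e1
  change x 2 = 0 at e2
  change x 3 = 0 at e3
  change x 4 = 0 at e4
  change x 5 = 0 at e5
  change x 6 = 0 at e6
  rw [e1, e2, e3, e4, e5, e6] at h9
  simp at h9
  have h10 : x 0 = 0 := by
    have h11 : (2 : k) * x 0 = 0 := by linear_combination hx - h9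
    exact (mul_eq_zero.1 h11).resolve_left h2
  have h12 : x 7 = 0 := by linear_combination hx - h10
  ext i
  fin_cases i
  · exact h10
  · exact e1
  · exact e2
  · exact e3
  · exact e4
  · exact e5
  · exact e6
  · exact h12

end tw

/-! ### the 3-form of a module -/

section module_

variable {K : Type} [Field K] [Finite K] {k V : Type*} [Field k] [AddCommGroup V] [Module k V]
  {ρ : GK K →* Module.End k V} {j : K →+* k}

/-- the comparison map -/
theorem exists_map (h2 : (2 : k) ≠ 0) (hirr : ∀ L : Submodule k V, (∀ g, ∀ w ∈ L, ρ g w ∈ L) → L = ⊥ ∨ L = ⊤)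
    {v : V} {φ : Dual k V} (hv0 : v ≠ 0) (hc : ∀ g, φ (ρ g v) = j (x1 g)) :
    ∃ Λ : V →ₗ[k] (Fin 8 → k), (∀ g, Λ (ρ g v) = Ak j g (ek k)) ∧ (∀ w, Λ w 0 + Λ w 7 = 0) ∧
      ∀ g w, Λ (ρ g w) = Ak j g (Λ w) := by
  let π1 : (GK K →₀ k) →ₗ[k] V := Finsupp.linearCombination k fun g => ρ g v
  let π2 : (GK K →₀ k) →ₗ[k] (Fin 8 → k) := Finsupp.linearCombination k fun g => Ak j g (ek k)
  have hπ1 : ∀ g c, π1 (Finsupp.single g c) = c • ρ g v := fun g c => Finsupp.linearCombination_single _ _ _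
  have hπ2 : ∀ g c, π2 (Finsupp.single g c) = c • Ak j g (ek k) := fun g c => Finsupp.linearCombination_single _ _ _
  have hs : LinearMap.range π1 = ⊤ := by
    rw [Finsupp.range_linearCombination]
    exact Cfsg.Agent.H887.DS.span_eq_top hirr hv0
  have htr : ∀ c, π2 c 0 + π2 c 7 = 0 := by
    intro c
    induction c using Finsupp.induction_linear with
    | zero => rw [map_zero]; simp
    | add x y hx hy =>
      rw [map_add, Pi.add_apply, Pi.add_apply]
      linear_combination hx + hy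
    | single g c =>
      rw [hπ2, Pi.smul_apply, Pi.smul_apply, smul_eq_mul, smul_eq_mul, ← mul_add, Ak_tr]
      simp [ek]
  have hcoef : ∀ h c, Ak j h (π2 c) 6 = φ (ρ h (π1 c)) := by
    intro h c
    induction c using Finsupp.induction_linear with
    | zero => rw [map_zero, map_zero, map_zero, map_zero, map_zero]; rfl
    | add x y hx hy => rw [map_add, map_add, map_add, map_add, map_add, Pi.add_apply, hx, hy]
    | single g c =>
      rw [hπ2, hπ1, map_smul, map_smul, map_smul, Pi.smul_apply, ← Ak_mul, Ak_ek]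
      have h3 : ρ h (ρ g v) = ρ (h * g) v := by rw [map_mul]; rfl
      rw [h3, hc, x1_eq]
  have hker : ∀ c, π1 c = 0 → π2 c = 0 := by
    intro c hc0
    refine rad (K := K) (j := j) h2 (htr c) fun g => ?_
    rw [hcoef, hc0, map_zero, map_zero]
  obtain ⟨s, hs'⟩ := LinearMap.exists_rightInverse_of_surjective π1 hs
  have hss : ∀ w, π1 (s w) = w := fun w => by
    have := LinearMap.congr_fun hs' w
    exact this
  have hkey : ∀ c, π2 (s (π1 c)) = π2 c := by
    intro c
    rw [← sub_eq_zero, ← map_sub]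
    apply hker
    rw [map_sub, hss, sub_self]
  have hgen : ∀ g, π2 (s (ρ g v)) = Ak j g (ek k) := by
    intro g
    have h3 := hkey (Finsupp.single g 1)
    rw [hπ1, hπ2, one_smul, one_smul] at h3
    exact h3
  refine ⟨π2 ∘ₗ s, hgen, fun w => htr _, ?_⟩
  intro g w
  obtain ⟨c, rfl⟩ : ∃ c, π1 c = w := LinearMap.range_eq_top.1 hs w
  induction c using Finsupp.induction_linear with
  | zero => rw [map_zero, map_zero, map_zero, map_zero]
  | add x y hx hy => rw [map_add, map_add, map_add, map_add, map_add, hx, hy]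
  | single h c =>
    rw [hπ1, map_smul, map_smul, map_smul, map_smul]
    have h3 : ρ g (ρ h v) = ρ (g * h) v := by rw [map_mul]; rfl
    rw [h3]
    congr 1
    change π2 (s (ρ (g * h) v)) = Ak j g (π2 (s (ρ h v)))
    rw [hgen, hgen, Ak_mul]

theorem Ak_E8 (a : Fin 6) : Ak j (gv8 K a) (ek k) = Pi.single (ix a) 1 := by
  funext b
  rw [Ak_ek, gv8_e]
  unfold E8
  rw [Pi.single_apply, Pi.single_apply]
  split_ifs
  · exact map_one j
  · exact map_zero j

/-- **the 3-form if the coefficient is the first one** -/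
theorem exists_tri1 (h2 : (2 : k) ≠ 0) (hirr : ∀ L : Submodule k V, (∀ g, ∀ w ∈ L, ρ g w ∈ L) → L = ⊥ ∨ L = ⊤)
    {v : V} {φ : Dual k V} (hv0 : v ≠ 0) (hc : ∀ g, φ (ρ g v) = j (x1 g)) :
    ∃ f : V →ₗ[k] V →ₗ[k] V →ₗ[k] k, (∀ x z, f x x z = 0) ∧ (∀ x y, f x y y = 0) ∧ (∃ x y z, f x y z ≠ 0) ∧
      ∀ g x y z, f (ρ g x) (ρ g y) (ρ g z) = f x y z := by
  obtain ⟨Λ, h1, h3, h4⟩ := exists_map h2 hirr hv0 hc
  let f : V →ₗ[k] V →ₗ[k] V →ₗ[k] k := LinearMap.mk₂ k (fun x y => (f8 k (Λ x) (Λ y)).comp Λ)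
    (fun x y z => by ext w; simp) (fun c x y => by ext w; simp) (fun x y z => by ext w; simp)
    (fun c x y => by ext w; simp)
  have hf : ∀ x y z, f x y z = f8 k (Λ x) (Λ y) (Λ z) := fun _ _ _ => rfl
  refine ⟨f, ?_, ?_, ?_, ?_⟩
  · intro x z
    rw [hf, f8_xx (h3 x) (h3 z)]
  · intro x y
    rw [hf, f8_yy (h3 x) (h3 y)]
  · refine ⟨ρ (gv8 K 0) v, ρ (gv8 K 1) v, ρ (gv8 K 2) v, ?_⟩
    rw [hf, h1, h1, h1, Ak_E8, Ak_E8, Ak_E8, f8_apply]
    change zornMul (zornMul (Pi.single 1 1) (Pi.single 2 1)) (Pi.single 3 1) 0 +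
      zornMul (zornMul (Pi.single 1 1) (Pi.single 2 1)) (Pi.single 3 1) 7 ≠ (0 : k)
    rw [zorn_apply, zorn_apply]
    simp
  · intro g x y z
    rw [hf, hf, h4, h4, h4, f8_apply, f8_apply, ← Ak_zorn, ← Ak_zorn, Ak_tr]

end module_

/-! ### the graph automorphism -/

section graph

variable {K : Type} [Field K] [Finite K] {k V : Type*} [Field k] [AddCommGroup V] [Module k V]
  {ρ : GK K →* Module.End k V}

theorem mem_D {v : V} (h : ∀ r, 6 ≤ r → r < 12 → ∀ t, ρ (xg r t) v = v) : v ∈ D cs2 hc2 (X2 K) ρ := by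
  let S : Subgroup (GK K) :=
    { carrier := {g | ρ g v = v}
      mul_mem' := fun {a b} ha hb => by
        change ρ (a * b) v = v
        rw [rho_mul, hb, ha]
      one_mem' := by change ρ 1 v = v; rw [map_one]; rfl
      inv_mem' := fun {a} ha => by
        change ρ a⁻¹ v = v
        have ha' : ρ a v = v := ha
        conv_lhs => rw [← ha']
        rw [← rho_mul, inv_mul_cancel, map_one]; rfl }
  have h1 : RGD.Sup (X2 K) (RGD.Pos cs2 hc2) ≤ S := by
    refine RGD.Sup_le fun z hz u hu => ?_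
    obtain ⟨r, h6, h12, e, -⟩ := exists_of_pos hz
    rw [← e, mem_X2 h12] at hu
    obtain ⟨t, rfl⟩ := hu
    exact h r h6 h12 t
  exact fun b hb => h1 hb

/-- elements which do not change the coefficient fix the vector -/
theorem fix_of_coef (hirr : ∀ L : Submodule k V, (∀ g, ∀ w ∈ L, ρ g w ∈ L) → L = ⊥ ∨ L = ⊤) {v : V} {φ : Dual k V}
    (hφ0 : φ ≠ 0) {c : GK K → k} (hc : ∀ g, φ (ρ g v) = c g) {u : GK K} (hu : ∀ g, c (g * u) = c g) : ρ u v = v := by
  apply Cfsg.Agent.H887.DS.Psi_injective hirr hφ0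
  funext g
  rw [Cfsg.Agent.H887.DS.Psi_apply, Cfsg.Agent.H887.DS.Psi_apply, ← rho_mul, hc, hc, hu]

theorem x2_mul_four (t : K) (g : GK K) : x2 (g * xg 4 t) = x2 g := by
  unfold x2
  rw [a14_mul, a14_pos (by norm_num) (Or.inr rfl)]

/-- the permutation of the roots -/
def gp (r : ℕ) : ℕ := [2, 3, 0, 1, 5, 4, 7, 6, 10, 11, 8, 9].getD r 0
/-- the exponents -/
def ge (r : ℕ) : ℕ := [1, 1, 3, 3, 3, 1, 1, 3, 3, 3, 1, 1].getD r 0

theorem exists_graph' [CharP K 3] : ∃ α : GK K ≃* GK K, ∀ r, r < 12 → ∀ t, α (xg r t) = xg (gp r) (t ^ ge r) := by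
  have hperf : ∀ x : K, ∃ y : K, y ^ 3 = x := by
    haveI : Fact (Nat.Prime 3) := ⟨Nat.prime_three⟩
    haveI : PerfectRing K 3 := inferInstance
    exact fun x => (PerfectRing.bijective_frobenius (R := K) (p := 3)).2 x
  obtain ⟨α, hα⟩ := Cfsg.Agent.ChevalleyStructure.GraphG2.exists_graph (K := K) hperf
  refine ⟨α, fun r hr t => ?_⟩
  have h12 : gp r < 12 := by
    have : ∀ r : Fin 12, gp r.1 < 12 := by decide
    exact this ⟨r, hr⟩
  apply Subtype.ext
  apply Units.ext
  rw [coe_xg _ h12, hα (xg r t) r t hr]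
  · exact Cfsg.Agent.ChevalleyStructure.Elts.x_of_lt (D := chevG2) (show gp r < chevG2.nroots from h12) _
  · rw [coe_xg _ hr]
    exact (Cfsg.Agent.ChevalleyStructure.Elts.x_of_lt (D := chevG2) (show r < chevG2.nroots from hr) t).symm

theorem cube_surj [CharP K 3] (s : K) : ∃ t : K, t ^ 3 = s := by
  haveI : Fact (Nat.Prime 3) := ⟨Nat.prime_three⟩
  haveI : PerfectRing K 3 := inferInstance
  exact (PerfectRing.bijective_frobenius (R := K) (p := 3)).2 s

/-- the second coefficient for `ρ` and for `ρ ∘ α` : impossible -/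
theorem not_both [CharP K 3] (h3 : 3 ≤ Nat.card K)
    (hirr : ∀ L : Submodule k V, (∀ g, ∀ w ∈ L, ρ g w ∈ L) → L = ⊥ ∨ L = ⊤)
    (hD : finrank k (D cs2 hc2 (X2 K) ρ) = 1) {v v' : V} {φ φ' : Dual k V} (hv0' : v' ≠ 0)
    (hφ0 : φ ≠ 0) (hφ0' : φ' ≠ 0) {j j' : K →+* k} (hc : ∀ g, φ (ρ g v) = j (x2 g))
    {α : GK K ≃* GK K} (hα : ∀ r, r < 12 → ∀ t, α (xg r t) = xg (gp r) (t ^ ge r))
    (hc' : ∀ g, φ' (ρ (α g) v') = j' (x2 g)) : False := by
  have hirr' : ∀ L : Submodule k V, (∀ g, ∀ w ∈ L, (ρ.comp α.toMonoidHom) g w ∈ L) → L = ⊥ ∨ L = ⊤ := by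
    intro L hL
    refine hirr L fun g w hw => ?_
    have := hL (α.symm g) w hw
    change ρ (α (α.symm g)) w ∈ L at this
    rwa [α.apply_symm_apply] at this
  -- `v` is fixed by the positive root groups
  have hv : v ∈ D cs2 hc2 (X2 K) ρ := mem_D fun r h6 h12 t =>
    fix_of_coef hirr hφ0 hc fun g => by rw [x2_mul_pos h12 h6]
  have hfix' : ∀ u, (∀ g, x2 (g * u) = x2 g) → ρ (α u) v' = v' := fun u hu =>
    fix_of_coef (ρ := ρ.comp α.toMonoidHom) hirr' hφ0' (c := fun g => j' (x2 g)) hc' fun g => by rw [hu]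
  have hpos : ∀ r, 6 ≤ r → r < 12 → ∀ t, ρ (xg (gp r) (t ^ ge r)) v' = v' := by
    intro r h6 h12 t
    rw [← hα r h12]
    exact hfix' _ fun g => x2_mul_pos h12 h6 t g
  have hv' : v' ∈ D cs2 hc2 (X2 K) ρ := by
    refine mem_D fun r h6 h12 s => ?_
    obtain ⟨t, ht⟩ := cube_surj s
    interval_cases r
    · have := hpos 7 (by norm_num) (by norm_num) t
      change ρ (xg 6 (t ^ 3)) v' = v' at this
      rwa [ht] at this
    · have := hpos 6 (by norm_num) (by norm_num) s
      change ρ (xg 7 (s ^ 1)) v' = v' at this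
      rwa [pow_one] at this
    · have := hpos 10 (by norm_num) (by norm_num) s
      change ρ (xg 8 (s ^ 1)) v' = v' at this
      rwa [pow_one] at this
    · have := hpos 11 (by norm_num) (by norm_num) s
      change ρ (xg 9 (s ^ 1)) v' = v' at this
      rwa [pow_one] at this
    · have := hpos 8 (by norm_num) (by norm_num) t
      change ρ (xg 10 (t ^ 3)) v' = v' at this
      rwa [ht] at this
    · have := hpos 9 (by norm_num) (by norm_num) t
      change ρ (xg 11 (t ^ 3)) v' = v' at this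
      rwa [ht] at this
  obtain ⟨c, hcv⟩ := (finrank_eq_one_iff_of_nonzero' (⟨v', hv'⟩ : D cs2 hc2 (X2 K) ρ)
    (fun h => hv0' (congrArg Subtype.val h))).1 hD ⟨v, hv⟩
  have hcv' : c • v' = v := congrArg Subtype.val hcv
  have h5 : ∀ s, ρ (xg 5 s) v = v := by
    intro s
    obtain ⟨t, ht⟩ := cube_surj s
    rw [← hcv', map_smul]
    congr 1
    have := hfix' (xg 4 t) fun g => x2_mul_four t g
    rw [hα 4 (by norm_num)] at this
    change ρ (xg 5 (t ^ 3)) v' = v' at this
    rwa [ht] at this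
  have h6 : ∀ s, ρ (xg 6 s) v = v := fun s =>
    fix_of_coef hirr hφ0 hc fun g => by rw [x2_mul_pos (by norm_num) (by norm_num)]
  obtain ⟨a, ha0, ha1⟩ := exists_two h3
  have h7 : ρ (hh K 1 a) v = v := by
    rw [hh_1]
    simp only [rho_mul, h5, h6]
  have h8 := hc (hh K 1 a)
  rw [h7, x2_hh 1 ha0, if_pos rfl] at h8
  have h9 := hc 1
  rw [map_one, x2_one, map_one] at h9
  change φ v = 1 at h9
  rw [h9] at h8
  exact ha1 (j.injective (by rw [map_one]; exact h8.symm))

end graph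

section main

variable {K : Type} [Field K] [Finite K] {k V : Type*} [Field k] [IsAlgClosed k] [AddCommGroup V] [Module k V]
  [FiniteDimensional k V] [Nontrivial V] {ρ : GK K →* Module.End k V}

/-- **the 3-form of a simple module of dimension at most 12** -/
theorem exists_tri (p : ℕ) [hp : Fact p.Prime] [CharP K p] [CharP k p] (hp2 : p ≠ 2) (h3 : 3 ≤ Nat.card K)
    (hirr : ∀ L : Submodule k V, Ivt ρ (GG cs2 hc2 (T2 K) (X2 K)) L → L = ⊥ ∨ L = ⊤)
    (h2 : 2 ≤ finrank k V) (hn : finrank k V ≤ 12) :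
    ∃ f : V →ₗ[k] V →ₗ[k] V →ₗ[k] k, (∀ x z, f x x z = 0) ∧ (∀ x y, f x y y = 0) ∧ (∃ x y z, f x y z ≠ 0) ∧
      ∀ g x y z, f (ρ g x) (ρ g y) (ρ g z) = f x y z := by
  have h2k : (2 : k) ≠ 0 := by
    intro h
    have h6 : ((2 : ℕ) : k) = 0 := by exact_mod_cast h
    rw [CharP.cast_eq_zero_iff k p, Nat.prime_dvd_prime_iff_eq hp.out Nat.prime_two] at h6
    exact hp2 h6
  have hI : ∀ (σ : GK K →* Module.End k V) (L : Submodule k V), (∀ g, ∀ w ∈ L, σ g w ∈ L) →
      Ivt σ (GG cs2 hc2 (T2 K) (X2 K)) L := fun σ L hL g _ w hw => hL g w hw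
  have hI' : ∀ (σ : GK K →* Module.End k V) (L : Submodule k V), Ivt σ (GG cs2 hc2 (T2 K) (X2 K)) L →
      (∀ g, ∀ w ∈ L, σ g w ∈ L) := fun σ L hL g w hw => hL g (by rw [GG2]; trivial) w hw
  have hirr0 : ∀ L : Submodule k V, (∀ g, ∀ w ∈ L, ρ g w ∈ L) → L = ⊥ ∨ L = ⊤ := fun L hL => hirr L (hI ρ L hL)
  have hz : ∀ {v : V} {φ : Dual k V}, φ v = 1 → v ≠ 0 ∧ φ ≠ 0 := by
    intro v φ h
    constructor
    · rintro rfl
      rw [map_zero] at h
      exact zero_ne_one h
    · rintro rfl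
      exact zero_ne_one h
  obtain ⟨v, hv, φ, hφ, hφv, hT, j, hj⟩ := cases p h3 hirr h2 hn
  obtain ⟨hv0, hφ0⟩ := hz hφv
  rcases hj with ⟨hj, -⟩ | ⟨hj, rfl, -⟩
  · exact exists_tri1 h2k hirr0 hv0 hj
  · obtain ⟨α, hα⟩ := exists_graph' (K := K)
    have hirr' : ∀ L : Submodule k V, Ivt (ρ.comp α.toMonoidHom) (GG cs2 hc2 (T2 K) (X2 K)) L → L = ⊥ ∨ L = ⊤ := by
      intro L hL
      refine hirr0 L fun g w hw => ?_
      have := hI' _ L hL (α.symm g) w hw
      change ρ (α (α.symm g)) w ∈ L at this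
      rwa [α.apply_symm_apply] at this
    obtain ⟨v', hv', φ', hφ', hφv', hT', j', hj'⟩ := cases 3 h3 hirr' h2 hn
    obtain ⟨hv0', hφ0'⟩ := hz hφv'
    rcases hj' with ⟨hj', -⟩ | ⟨hj', -⟩
    · obtain ⟨f, f1, f2, f3, f4⟩ := exists_tri1 h2k (fun L hL => hirr' L (hI _ L hL)) hv0' hj'
      refine ⟨f, f1, f2, f3, fun g x y z => ?_⟩
      have := f4 (α.symm g) x y z
      change f (ρ (α (α.symm g)) x) (ρ (α (α.symm g)) y) (ρ (α (α.symm g)) z) = f x y z at this
      rwa [α.apply_symm_apply] at this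
    · exact (not_both h3 hirr0 (finrank_D (rgd2 (K := K) 3) hirr T2_comm) hv0' hφ0 hφ0' hj hα hj').elim

end main

/-! ### descent to the field of definition -/

section core

open Cfsg Cfsg.Geo Cfsg.Agent.H915.LD Cfsg.Agent.H151.Six Cfsg.Agent.H911

/-- descent of an invariant alternating 3-form -/
theorem descend {ι F k G : Type*} [Fintype ι] [DecidableEq ι] [Field F] [Field k] [Algebra F k]
    (M : G → Matrix ι ι F) {f : (ι → k) →ₗ[k] (ι → k) →ₗ[k] (ι → k) →ₗ[k] k} (h1 : ∀ x z, f x x z = 0)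
    (h2 : ∀ x y, f x y y = 0) (h3 : ∃ x y z, f x y z ≠ 0)
    (h4 : ∀ g x y z, f ((M g).map (algebraMap F k) *ᵥ x) ((M g).map (algebraMap F k) *ᵥ y)
      ((M g).map (algebraMap F k) *ᵥ z) = f x y z) :
    ∃ f : (ι → F) →ₗ[F] (ι → F) →ₗ[F] (ι → F) →ₗ[F] F, (∀ x z, f x x z = 0) ∧ (∀ x y, f x y y = 0) ∧ f ≠ 0 ∧
      ∀ g x y z, f (M g *ᵥ x) (M g *ᵥ y) (M g *ᵥ z) = f x y z := by
  let em : (ι → F) → (ι → k) := fun x i => algebraMap F k (x i)
  have em_add : ∀ x y, em (x + y) = em x + em y := fun x y => by funext i; exact map_add _ _ _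
  have em_smul : ∀ (c : F) x, em (c • x) = algebraMap F k c • em x := fun c x => by funext i; exact map_mul _ _ _
  have em_mul : ∀ (A : Matrix ι ι F) x, em (A *ᵥ x) = A.map (algebraMap F k) *ᵥ em x := by
    intro A x
    funext i
    change algebraMap F k (∑ b, A i b * x b) = ∑ b, A.map (algebraMap F k) i b * em x b
    rw [map_sum]
    exact Finset.sum_congr rfl fun b _ => map_mul _ _ _
  have em_single : ∀ a : ι, em (Pi.single a 1) = Pi.single a 1 := by
    intro a
    funext i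
    change algebraMap F k ((Pi.single a 1 : ι → F) i) = (Pi.single a 1 : ι → k) i
    rw [Pi.single_apply, Pi.single_apply]
    split_ifs
    · exact map_one _
    · exact map_zero _
  obtain ⟨a, b, c, habc⟩ : ∃ a b c : ι, f (Pi.single a 1) (Pi.single b 1) (Pi.single c 1) ≠ 0 := by
    by_contra hcon
    push Not at hcon
    have h0 : f = 0 := by
      refine (Pi.basisFun k ι).ext fun a => ?_
      refine (Pi.basisFun k ι).ext fun b => ?_
      refine (Pi.basisFun k ι).ext fun c => ?_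
      rw [Pi.basisFun_apply, Pi.basisFun_apply, Pi.basisFun_apply, hcon]
      rfl
    obtain ⟨x, y, z, h⟩ := h3
    rw [h0] at h
    exact h rfl
  obtain ⟨l, hl⟩ : ∃ l : Module.Dual F k, l (f (Pi.single a 1) (Pi.single b 1) (Pi.single c 1)) ≠ 0 := by
    by_contra hcon
    push Not at hcon
    exact habc ((Module.forall_dual_apply_eq_zero_iff F _).1 hcon)
  have hl_smul : ∀ (r : F) (y : k), l (algebraMap F k r * y) = r * l y := by
    intro r y
    rw [← Algebra.smul_def, map_smul, smul_eq_mul]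
  let f' : (ι → F) →ₗ[F] (ι → F) →ₗ[F] (ι → F) →ₗ[F] F := LinearMap.mk₂ F (fun x y =>
      { toFun := fun z => l (f (em x) (em y) (em z))
        map_add' := fun z w => by rw [em_add, map_add, map_add]
        map_smul' := fun r z => by
          rw [em_smul, map_smul, smul_eq_mul, hl_smul, RingHom.id_apply, smul_eq_mul] })
    (fun x y z => by
      refine LinearMap.ext fun w => ?_
      change l (f (em (x + y)) (em z) (em w)) = l (f (em x) (em z) (em w)) + l (f (em y) (em z) (em w))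
      rw [em_add, map_add, LinearMap.add_apply, LinearMap.add_apply, map_add])
    (fun r x y => by
      refine LinearMap.ext fun w => ?_
      change l (f (em (r • x)) (em y) (em w)) = r • l (f (em x) (em y) (em w))
      rw [em_smul, map_smul, LinearMap.smul_apply, LinearMap.smul_apply, smul_eq_mul, hl_smul, smul_eq_mul])
    (fun x y z => by
      refine LinearMap.ext fun w => ?_
      change l (f (em x) (em (y + z)) (em w)) = l (f (em x) (em y) (em w)) + l (f (em x) (em z) (em w))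
      rw [em_add, map_add, LinearMap.add_apply, map_add])
    (fun r x y => by
      refine LinearMap.ext fun w => ?_
      change l (f (em x) (em (r • y)) (em w)) = r • l (f (em x) (em y) (em w))
      rw [em_smul, map_smul, LinearMap.smul_apply, smul_eq_mul, hl_smul, smul_eq_mul])
  have hf' : ∀ x y z, f' x y z = l (f (em x) (em y) (em z)) := fun _ _ _ => rfl
  refine ⟨f', fun x z => ?_, fun x y => ?_, ?_, fun g x y z => ?_⟩
  · rw [hf', h1, map_zero]
  · rw [hf', h2, map_zero]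
  · intro h0
    apply hl
    have h5 := hf' (Pi.single a 1) (Pi.single b 1) (Pi.single c 1)
    rw [h0, em_single, em_single, em_single] at h5
    exact h5.symm
  · rw [hf', hf', em_mul, em_mul, em_mul, h4]

variable {ι : Type} [Fintype ι] [DecidableEq ι] {F : Type} [Field F] [Fintype F]

/-- **The 3-form of a core of type `G₂(K)`.** -/
theorem g2_tri {p : ℕ} [hp : Fact p.Prime] [CharP F p] (h2 : (2 : F) ≠ 0) {P : Subgroup (GL ι F)} (hC : Core P)
    {K : Type} [Field K] [Fintype K] [CharP K p] (h3 : 3 ≤ Fintype.card K) (e : Soc P ≃* Lie.chevG2.group K)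
    (hn : Fintype.card ι ≤ 12) :
    ∃ f : (ι → F) →ₗ[F] (ι → F) →ₗ[F] (ι → F) →ₗ[F] F, (∀ x z, f x x z = 0) ∧ (∀ x y, f x y y = 0) ∧ f ≠ 0 ∧
      ∀ g ∈ P, ∀ x y z, f ((g : Matrix ι ι F).mulVec x) ((g : Matrix ι ι F).mulVec y)
        ((g : Matrix ι ι F).mulVec z) = f x y z := by
  haveI := hC.nonempty
  have h3' : 3 ≤ Nat.card K := by rwa [Nat.card_eq_fintype_card]
  obtain ⟨f⟩ := Cfsg.Agent.H48.DsChev.g2_equiv p hC h3 e
  obtain ⟨φ, hφ⟩ : ∃ φ : GK K →* GL ι F, φ.range = P := ⟨P.subtype.comp f.symm.toMonoidHom, by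
    rw [MonoidHom.range_comp, MonoidHom.range_eq_top.2 f.symm.surjective, ← MonoidHom.range_eq_map,
      Subgroup.range_subtype]⟩
  have hchar : CharP (AlgebraicClosure F) p := charP_of_injective_algebraMap (algebraMap F _).injective p
  have hirr : ∀ L : Submodule (AlgebraicClosure F) (ι → AlgebraicClosure F),
      Ivt (lin (acRep φ)) (GG cs2 hc2 (T2 K) (X2 K)) L → L = ⊥ ∨ L = ⊤ :=
    fun L hL => acRep_irr hφ (H920.span_eq_top hC.absIrred) GG2 L hL
  have hfin : Module.finrank (AlgebraicClosure F) (ι → AlgebraicClosure F) = Fintype.card ι :=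
    Module.finrank_fintype_fun_eq_card _
  have hp2 : p ≠ 2 := by
    rintro rfl
    exact h2 CharTwo.two_eq_zero
  obtain ⟨f3, f1, f2, fne, finv⟩ := exists_tri p hp2 h3' hirr (by rw [hfin]; exact hC.two_le) (by rw [hfin]; exact hn)
  obtain ⟨f', g1, g2, g3, g4⟩ := descend (fun g : GK K => (φ g : Matrix ι ι F)) f1 f2 fne finv
  refine ⟨f', g1, g2, g3, ?_⟩
  intro g hg
  rw [← hφ] at hg
  obtain ⟨h, rfl⟩ := hg
  exact g4 h

end core

end Cfsg.Agent.H927.G2
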